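import Mathlib
import Cfsg.Agent.Lib.Helper80.MinSU2.Defs

set_option autoImplicit false

namespace Cfsg.Agent.Lib.Helper65.MinSU2

open Cfsg.Agent.Lib.Helper83.MinSU Cfsg.Agent.Lib.Helper80.MinSU2

variable {m n : ℕ}

/-- [tNUM] -/
theorem ME_mul (he : Even n) : ME n * 3 = 2 ^ (n - 1) * (2 ^ n - 1) := by
  unfold ME
  apply Nat.div_mul_cancel
  obtain ⟨k, rfl⟩ := he
  have h1 : 3 ∣ 2 ^ (k + k) - 1 := by
    have := Nat.sub_dvd_pow_sub_pow 4 1 k
    rw [one_pow] at this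
    have e : (2 : ℕ) ^ (k + k) = 4 ^ k := by
      rw [← two_mul, pow_mul]; norm_num
    rw [e]
    exact this
  exact Dvd.dvd.mul_left h1 _

/-- [tNUM] -/
theorem ME_le_NU (he : Even n) (hn : 2 ≤ n) : ME n ≤ NU 2 n := by
  unfold ME NU
  have e : (2 : ℕ) ^ 2 - 1 = 3 := by norm_num
  rw [e]
  apply Nat.div_le_div_right
  rw [mul_comm]
  exact Nat.mul_le_mul_left _ (Nat.le_succ _)

end Cfsg.Agent.Lib.Helper65.MinSU2
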