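import Mathlib
import Cfsg.Agent.Lib.Helper80.MinSU2.Defs
import Cfsg.Agent.Lib.Helper28.MinSU.S1c
import Cfsg.Agent.Lib.Helper65.MinSU2.tNUM

set_option autoImplicit false

namespace Cfsg.Agent.Lib.Helper65.MinSU2

open Matrix Module Cfsg.Agent.Lib.Helper13 Cfsg.Agent.Lib.Helper5 Cfsg.Agent.Lib.Helper57.RootSU
  Cfsg.Agent.Lib.Helper83.MinSU Cfsg.Agent.Lib.Helper80.MinSU2 Cfsg.Agent.Lib.Helper94
  Cfsg.Agent.Lib.Helper94.U Cfsg.Agent.Lib.Helper28.MinSU

/-- `3 ME n ≤ 2^(2n-1)` -/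
theorem tS1c_ME_le {n : ℕ} (he : Even n) (hn : 1 ≤ n) : ME n * 3 ≤ 2 ^ (2 * n - 1) := by
  rw [ME_mul he]
  calc 2 ^ (n - 1) * (2 ^ n - 1) ≤ 2 ^ (n - 1) * 2 ^ n := Nat.mul_le_mul_left _ (Nat.sub_le _ _)
    _ = 2 ^ (2 * n - 1) := by rw [← pow_add]; congr 1; omega

variable {F : Type*} [Field F] [Fintype F] {m n : ℕ}

/-- [tS1c] -/
theorem index_stab_ti (hF : Fintype.card F = 2 ^ 2) (hn : 6 ≤ n) (he : Even n)
    (R : Submodule F (Fin n → F)) (hR0 : R ≠ ⊥)
    (hR : ∀ u ∈ R, ∀ v ∈ R, Cfsg.hermForm n F 2 u v = 0)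
    (K : Subgroup (Cfsg.SU n F 2)) (hK : ∀ k ∈ K, ∀ x ∈ R, k.1.1 *ᵥ x ∈ R) :
    ME n ≤ K.index := by
  refine le_trans ?_ (index_St_le R K hK)
  have h2k := two_mul_finrank_le_of_ti hF R hR
  have hkpos : 0 < finrank F R := by
    rw [Module.finrank_pos_iff, Submodule.nontrivial_iff_ne_bot]
    exact hR0
  by_cases hk1 : finrank F R = 1
  · obtain ⟨e, heR, he0⟩ := Submodule.exists_mem_ne_zero_of_ne_bot hR0
    have hspan : Submodule.span F {e} = R := by
      apply Submodule.eq_of_le_of_finrank_eq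
      · rw [Submodule.span_singleton_le_iff_mem]; exact heR
      · rw [finrank_span_singleton he0, hk1]
    have := Cfsg.Agent.Lib.Helper81.MinSU.index_Pe hF (by omega) he e he0 (hR e heR e heR)
    refine (ME_le_NU he (by omega)).trans ?_
    rw [← this, ← hspan]
    exact le_rfl
  · have h1 := index_St_mul hF (by omega) R
    rw [card_su_parabolic hF (finrank F R) (by omega) h2k R rfl hR] at h1
    generalize finrank F R = k at *
    obtain ⟨l, rfl⟩ : ∃ l, n = 2 * k + l := ⟨n - 2 * k, by omega⟩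
    by_cases h63 : k = 3 ∧ l = 0
    · obtain ⟨rfl, rfl⟩ := h63
      have hc := card_GU hF 6
      rw [hc] at h1
      have ev5 : ¬ Even 5 := by decide
      have ev4 : Even 4 := by decide
      have ev3 : ¬ Even 3 := by decide
      simp [Finset.prod_range_succ, Fin.prod_univ_succ, ev5, ev4, ev3] at h1
      have hME : ME (2 * 3 + 0) = 672 := by norm_num [ME]
      rw [hME]
      omega
    · have e1 : 2 * k + l - 2 * k = l := by omega
      rw [e1, ← card_GU hF l] at h1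
      have hG : ∏ i : Fin k, ((2 ^ 2) ^ k - (2 ^ 2) ^ (i : ℕ)) ≤ 2 ^ (2 * k ^ 2) := by
        calc ∏ i : Fin k, ((2 ^ 2) ^ k - (2 ^ 2) ^ (i : ℕ)) ≤ ((2 ^ 2) ^ k) ^ (Finset.univ : Finset (Fin k)).card :=
              Finset.prod_le_pow_card _ _ _ (fun i _ => Nat.sub_le _ _)
          _ = 2 ^ (2 * k ^ 2) := by
              rw [Finset.card_univ, Fintype.card_fin, ← pow_mul, ← pow_mul]; congr 1; ring
      have hb := s1c_arith 2 k l _ _ _ _ (by omega) h1 (card_GU_bounds hF _).1 hG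
        (card_GU_bounds hF l).2
      have hexp := s1c_exp k l (by omega) hn h63
      have hME := tS1c_ME_le (n := 2 * k + l) he (by omega)
      have hpos : 0 < 2 + 1 := by omega
      apply Nat.le_of_mul_le_mul_right _ hpos
      refine hME.trans (le_trans ?_ hb)
      apply Nat.pow_le_pow_right (by omega)
      omega

end Cfsg.Agent.Lib.Helper65.MinSU2
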